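import Mathlib
import Cfsg.Agent.Lib.Wr7.Sp5

/-! In characteristic two the tensor wreath product of `Sp₂` or `Sp₄` lies in the normaliser of the
span of the Clifford generators (a spin module), a proper subgroup of `Ω`. -/

set_option autoImplicit false
set_option linter.unusedSectionVars false
set_option linter.unusedSimpArgs false

namespace H38.Spin

open Module Cfsg H97 H11.Ten H28 H28.Wr

section Small

variable {F U : Type*} [Field F] [AddCommGroup U] [Module F U]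

/-- adjoint pairs. -/
def Adj (B : U →ₛₗ[RingHom.id F] U →ₗ[F] F) (a a' : Module.End F U) : Prop :=
  ∀ x y, B (a x) y = B x (a' y)

/-- alternating elements (no condition in dimension two). -/
def AltT (B : U →ₛₗ[RingHom.id F] U →ₗ[F] F) (a : Module.End F U) : Prop :=
  finrank F U = 2 ∨ ∃ b b', Adj B b b' ∧ a = b + b'

/-- the Clifford generators of one factor. -/
def Good (B : U →ₛₗ[RingHom.id F] U →ₗ[F] F) (a : Module.End F U) : Prop :=
  AltT B a ∧ ∃ c : F, a * a = c • 1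

structure Dat (B : U →ₛₗ[RingHom.id F] U →ₗ[F] F) (E G : Module.End F U) : Prop where
  EE : E * E = 0
  GG : G * G = 0
  EG : E * G + G * E = 1
  aE : Adj B E E
  aG : Adj B G G
  tE : AltT B E
  tG : AltT B G
  cl : ∀ a b, Good B a → Good B b → ∃ c : F, a * b + b * a = c • 1

theorem AltT.add {B : U →ₛₗ[RingHom.id F] U →ₗ[F] F} {a a' : Module.End F U} (h : AltT B a)
    (h' : AltT B a') : AltT B (a + a') := by
  rcases h with h | ⟨b, c, h1, rfl⟩
  · exact Or.inl h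
  rcases h' with h' | ⟨b', c', h2, rfl⟩
  · exact Or.inl h'
  refine Or.inr ⟨b + b', c + c', fun x y => ?_, by abel⟩
  simp [h1 x y, h2 x y]

theorem cl_of [CharP F 2] [Nontrivial U] {B : U →ₛₗ[RingHom.id F] U →ₗ[F] F}
    (τ : Module.End F U →ₗ[F] F) (h1 : τ 1 = 0)
    (h : ∀ a, AltT B a → ∃ p : F, a * a = τ a • a + p • 1) {a b : Module.End F U} (ha : Good B a)
    (hb : Good B b) : ∃ c : F, a * b + b * a = c • 1 := by
  have key : ∀ a, Good B a → τ a = 0 := by
    rintro a ⟨h2, c, hc⟩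
    obtain ⟨p, hp⟩ := h a h2
    by_contra h0
    have h3 : τ a • a = (c - p) • (1 : Module.End F U) := by rw [sub_smul, ← hc, hp]; abel
    have h4 := congrArg τ h3
    rw [map_smul, map_smul, h1, smul_zero, smul_eq_mul] at h4
    exact h0 (mul_self_eq_zero.1 h4)
  obtain ⟨p, hp⟩ := h (a + b) (ha.1.add hb.1)
  obtain ⟨c, hc⟩ := ha.2
  obtain ⟨d, hd⟩ := hb.2
  rw [map_add, key a ha, key b hb, add_zero, zero_smul, zero_add, add_mul, mul_add, mul_add,
    hc, hd] at hp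
  exact ⟨p - c - d, by rw [sub_smul, sub_smul, ← hp]; abel⟩

variable [FiniteDimensional F U] [CharP F 2] {PU : PQ F U (RingHom.id F)}

theorem sym (hA : Alt PU) (x y : U) : PU.B y x = PU.B x y := by
  rw [hA.skew, CharTwo.neg_eq]

theorem altT_sym (hA : Alt PU) {a : Module.End F U} (h4 : finrank F U ≠ 2) (ha : AltT PU.B a) :
    (∀ x y, PU.B (a x) y = PU.B (a y) x) ∧ ∀ x, PU.B (a x) x = 0 := by
  obtain ⟨b, b', h1, rfl⟩ := ha.resolve_left h4
  have key : ∀ x y, PU.B ((b + b') x) y = PU.B (b x) y + PU.B (b y) x := fun x y => by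
    rw [LinearMap.add_apply, map_add, LinearMap.add_apply, sym hA y (b' x), ← h1]
  exact ⟨fun x y => by rw [key, key, add_comm], fun x => by rw [key, CharTwo.add_self_eq_zero]⟩

theorem exists_basis (hA : Alt PU) : ∃ (m : ℕ) (e f : Fin m → U), finrank F U = m + m ∧
    (∀ i j, PU.B (e i) (f j) = if i = j then 1 else 0) ∧ (∀ i j, PU.B (e i) (e j) = 0) ∧
    (∀ i j, PU.B (f i) (f j) = 0) ∧ ∀ x, x = ∑ i, (PU.B x (f i) • e i + PU.B x (e i) • f i) := by
  obtain ⟨m, k, b, e1, e2, e3, e4⟩ := Cfsg.Agent.S0752.result (F := F) (V := U) PU.B hA.self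
  have hk : k = 0 := by
    by_contra hk
    exact b.ne_zero (.inr ⟨0, Nat.pos_of_ne_zero hk⟩) (hA.nd _ fun y => e4 _ y)
  subst hk
  have h := Module.finrank_eq_card_basis b
  refine ⟨m, fun i => b (.inl (.inl i)), fun i => b (.inl (.inr i)), by simpa using h, e1, e2, e3,
    fun x => ?_⟩
  rw [← sub_eq_zero]
  apply hA.nd
  intro y
  have : PU.B (x - ∑ i, (PU.B x (b (.inl (.inr i))) • b (.inl (.inl i)) +
      PU.B x (b (.inl (.inl i))) • b (.inl (.inr i)))) = 0 := by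
    apply b.ext
    rintro ((j | j) | j)
    · have e1' : ∀ i j, PU.B (b (.inl (.inr i))) (b (.inl (.inl j))) = if j = i then 1 else 0 :=
        fun i j => by rw [sym hA]; exact e1 j i
      have e2' : ∀ i j, PU.B (b (.inl (.inl i))) (b (.inl (.inl j))) = 0 := e2
      simp [map_sum, LinearMap.sum_apply, e1', e2']
    · have e1' : ∀ i j, PU.B (b (.inl (.inl i))) (b (.inl (.inr j))) = if i = j then 1 else 0 := e1
      have e3' : ∀ i j, PU.B (b (.inl (.inr i))) (b (.inl (.inr j))) = 0 := e3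
      simp [map_sum, LinearMap.sum_apply, e1', e3']
    · exact j.elim0
  rw [this]; rfl

theorem exists_dat (hA : Alt PU) (hd : finrank F U = 2 ∨ finrank F U = 4) : ∃ E G, Dat PU.B E G := by
  obtain ⟨m, e, f, hm, ef, ee, ff, hx⟩ := exists_basis hA
  have : Nontrivial U := Module.nontrivial_of_finrank_pos (R := F) (by omega)
  have fe : ∀ i j, PU.B (f i) (e j) = if j = i then 1 else 0 := fun i j => by rw [sym hA, ef]
  have hr : ∀ u v : U, Adj PU.B ((PU.B u).smulRight v) ((PU.B v).smulRight u) := fun u v x y => by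
    simp [sym hA x u, mul_comm]
  rcases hd with hd | hd
  · obtain rfl : m = 1 := by omega
    simp only [Finset.univ_unique, Fin.default_eq_zero, Finset.sum_singleton] at hx
    have ext : ∀ a b : Module.End F U, a (e 0) = b (e 0) → a (f 0) = b (f 0) → a = b := by
      intro a b h1 h2
      ext x
      rw [hx x, map_add, map_add, map_smul, map_smul, map_smul, map_smul, h1, h2]
    refine ⟨(PU.B (e 0)).smulRight (e 0), (PU.B (f 0)).smulRight (f 0), ?_, ?_, ?_, hr _ _, hr _ _,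
      Or.inl hd, Or.inl hd, fun a b => cl_of
        ((PU.B (f 0)).comp (LinearMap.applyₗ (e 0)) + (PU.B (e 0)).comp (LinearMap.applyₗ (f 0)))
        ?_ fun a _ => ?_⟩
    · apply ext <;> simp [ee, ef]
    · apply ext <;> simp [ff, fe]
    · apply ext <;> simp [ee, ef, ff, fe]
    · simp [ef, fe, CharTwo.add_self_eq_zero]
    · have h1 := hx (a (e 0))
      have h2 := hx (a (f 0))
      simp only [LinearMap.add_apply, LinearMap.comp_apply, LinearMap.applyₗ_apply_apply,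
        sym hA (a (e 0)), sym hA (a (f 0))]
      generalize PU.B (a (e 0)) (f 0) = p at *
      generalize PU.B (a (e 0)) (e 0) = q at *
      generalize PU.B (a (f 0)) (f 0) = r at *
      generalize PU.B (a (f 0)) (e 0) = s at *
      refine ⟨p * s + q * r, ext _ _ ?_ ?_⟩ <;>
      · simp only [Module.End.mul_apply, LinearMap.add_apply, LinearMap.smul_apply,
          Module.End.one_apply, h1, h2, map_add, map_smul]
        match_scalars <;> grind
  · obtain rfl : m = 2 := by omega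
    simp only [Fin.sum_univ_two] at hx
    have ext : ∀ a b : Module.End F U, a (e 0) = b (e 0) → a (f 0) = b (f 0) →
        a (e 1) = b (e 1) → a (f 1) = b (f 1) → a = b := by
      intro a b h1 h2 h3 h4
      ext x
      rw [hx x]
      simp only [map_add, map_smul, h1, h2, h3, h4]
    have hr2 : ∀ u v : U, Adj PU.B ((PU.B u).smulRight v + (PU.B v).smulRight u)
        ((PU.B u).smulRight v + (PU.B v).smulRight u) := fun u v x y => by
      simp [sym hA x u, sym hA x v, mul_comm, add_comm]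
    refine ⟨(PU.B (e 0)).smulRight (e 1) + (PU.B (e 1)).smulRight (e 0),
      (PU.B (f 0)).smulRight (f 1) + (PU.B (f 1)).smulRight (f 0), ?_, ?_, ?_, hr2 _ _, hr2 _ _,
      Or.inr ⟨_, _, hr _ _, rfl⟩, Or.inr ⟨_, _, hr _ _, rfl⟩, fun a b => cl_of
        ((PU.B (f 0)).comp (LinearMap.applyₗ (e 0)) + (PU.B (f 1)).comp (LinearMap.applyₗ (e 1)))
        ?_ fun a ha => ?_⟩
    · apply ext <;> simp [ee, ef]
    · apply ext <;> simp [ff, fe]
    · apply ext <;> simp [ee, ef, ff, fe]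
    · simp [ef, fe, CharTwo.add_self_eq_zero]
    · obtain ⟨s1, s2⟩ := altT_sym hA (by omega) ha
      have h1 := hx (a (e 0))
      have h2 := hx (a (f 0))
      have h3 := hx (a (e 1))
      have h4 := hx (a (f 1))
      simp only [s2, s1 (f 0) (e 0), s1 (e 1) (e 0), s1 (e 1) (f 0), s1 (f 1) (e 0), s1 (f 1) (f 0),
        s1 (f 1) (e 1)] at h1 h2 h3 h4
      simp only [LinearMap.add_apply, LinearMap.comp_apply, LinearMap.applyₗ_apply_apply,
        sym hA (a (e 0)), sym hA (a (e 1))]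
      generalize PU.B (a (e 0)) (f 0) = p at *
      generalize PU.B (a (e 1)) (f 1) = p' at *
      generalize PU.B (a (e 0)) (e 1) = r at *
      generalize PU.B (a (e 0)) (f 1) = s at *
      generalize PU.B (a (f 0)) (e 1) = s' at *
      generalize PU.B (a (f 0)) (f 1) = r' at *
      refine ⟨p * p' + s * s' + r * r', ext _ _ ?_ ?_ ?_ ?_⟩ <;>
      · simp only [Module.End.mul_apply, LinearMap.add_apply, LinearMap.smul_apply,
          Module.End.one_apply, h1, h2, h3, h4, map_add, map_smul]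
        match_scalars <;> grind

end Small

section Big

variable {F R U V : Type*} [Field F] [CharP F 2] [AddCommGroup R] [Module F R] [AddCommGroup U]
  [Module F U] [AddCommGroup V] [Module F V] [FiniteDimensional F R] [FiniteDimensional F U]
  [Nontrivial R] {ι : Type*} [Fintype ι] [DecidableEq ι] {T : ι → TS F R U V}
  {PR : PQ F R (RingHom.id F)} {PU : PQ F U (RingHom.id F)} {Q : QuadraticForm F V}
  {π : Equiv.Perm ι →* (V ≃ₗ[F] V)}

variable (T PU) in
/-- the span of the Clifford generators. -/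
def LL : Submodule F (Module.End F V) :=
  Submodule.span F {X | ∃ i a, Good PU.B a ∧ X = psi (T i) a}

variable (T PU) in
/-- its normaliser. -/
def NN : Subgroup (V ≃ₗ[F] V) where
  carrier := {g | ∀ X, X ∈ LL T PU ↔ cN g X ∈ LL T PU}
  one_mem' := fun X => by rw [Wr.cN_one]
  mul_mem' := fun {g h} hg hh X => by rw [← Wr.cN_cN, ← hg, ← hh]
  inv_mem' := fun {g} hg X => by rw [hg (cN g⁻¹ X), Wr.cN_cN_inv]

theorem mem_NN {g : V ≃ₗ[F] V} (h1 : ∀ X ∈ LL T PU, cN g X ∈ LL T PU)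
    (h2 : ∀ X ∈ LL T PU, cN g⁻¹ X ∈ LL T PU) : g ∈ NN T PU :=
  fun X => ⟨h1 X, fun h => Wr.cN_inv_cN g X ▸ h2 _ h⟩

theorem two_end (X : Module.End F V) : X + X = 0 := by
  rw [← two_smul F X, CharTwo.two_eq_zero, zero_smul]

theorem cl_LL (h : WF T PR PU (PQ.ofQuad Q) π) {E G : Module.End F U} (D : Dat PU.B E G)
    {X Y : Module.End F V} (hX : X ∈ LL T PU) (hY : Y ∈ LL T PU) :
    ∃ c : F, X * Y + Y * X = c • 1 := by
  induction hX, hY using Submodule.span_induction₂ with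
  | mem_mem X Y hX hY =>
    obtain ⟨i, a, ha, rfl⟩ := hX
    obtain ⟨j, b, hb, rfl⟩ := hY
    by_cases hij : i = j
    · subst hij
      obtain ⟨c, hc⟩ := D.cl a b ha hb
      exact ⟨c, by rw [← map_mul, ← map_mul, ← map_add, hc, map_smul, map_one]⟩
    · exact ⟨0, by rw [(h.multi.comm i j hij a b).eq, two_end, zero_smul]⟩
  | zero_left => exact ⟨0, by simp⟩
  | zero_right => exact ⟨0, by simp⟩
  | add_left X X' Y _ _ _ h1 h2 =>
    obtain ⟨c, hc⟩ := h1
    obtain ⟨d, hd⟩ := h2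
    exact ⟨c + d, by rw [add_smul, ← hc, ← hd, add_mul, mul_add]; abel⟩
  | add_right X Y Y' _ _ _ h1 h2 =>
    obtain ⟨c, hc⟩ := h1
    obtain ⟨d, hd⟩ := h2
    exact ⟨c + d, by rw [add_smul, ← hc, ← hd, add_mul, mul_add]; abel⟩
  | smul_left r X Y _ _ h1 =>
    obtain ⟨c, hc⟩ := h1
    exact ⟨r * c, by rw [mul_smul, ← hc, smul_mul_assoc, mul_smul_comm, smul_add]⟩
  | smul_right r X Y _ _ h1 =>
    obtain ⟨c, hc⟩ := h1
    exact ⟨r * c, by rw [mul_smul, ← hc, smul_mul_assoc, mul_smul_comm, smul_add]⟩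

theorem adj_psi (h : WF T PR PU (PQ.ofQuad Q) π) (i : ι) {a a' : Module.End F U}
    (ha : Adj PU.B a a') : Adj (PQ.ofQuad Q).B (psi (T i) a) (psi (T i) a') := by
  intro x y
  refine (T i).ind (p := fun x => (PQ.ofQuad Q).B (psi (T i) a x) y =
    (PQ.ofQuad Q).B x (psi (T i) a' y)) x (by simp) (fun r u => ?_)
    fun x x' h1 h2 => by simp only [map_add, LinearMap.add_apply, h1, h2]
  refine (T i).ind (p := fun y => (PQ.ofQuad Q).B (psi (T i) a ((T i).τ r u)) y =
    (PQ.ofQuad Q).B ((T i).τ r u) (psi (T i) a' y)) y (by simp) (fun r' u' => ?_)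
    fun x x' h1 h2 => by simp only [map_add, h1, h2]
  simp only [psi_τ, (h.tf i).B_τ, ha u u']

theorem adj_of_psi (h : WF T PR PU (PQ.ofQuad Q) π) (i : ι) {a a' : Module.End F U}
    (ha : Adj (PQ.ofQuad Q).B (psi (T i) a) (psi (T i) a')) : Adj PU.B a a' := by
  intro x y
  obtain ⟨r, hr⟩ := exists_ne (0 : R)
  obtain ⟨r', hr'⟩ := H11.Ten.exists_B_eq (h.tf i).ndU hr 1
  have := ha ((T i).τ r x) ((T i).τ r' y)
  simpa only [psi_τ, (h.tf i).B_τ, hr', one_mul] using this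

theorem adj_cN {P : PQ F V (RingHom.id F)} {g : V ≃ₗ[F] V} (hg : g ∈ P.Isom)
    {X Y : Module.End F V} (h : Adj P.B X Y) : Adj P.B (cN g X) (cN g Y) := by
  intro x y
  rw [cN_apply, cN_apply, ← (P.Isom.inv_mem hg).1, le_inv_apply_apply, h,
    ← (P.Isom.inv_mem hg).1 x, le_inv_apply_apply]

theorem WG_norm (h : WF T PR PU (PQ.ofQuad Q) π) {g : V ≃ₗ[F] V} (hg : g ∈ WG T)
    (hI : g ∈ (PQ.ofQuad Q).Isom) : ∀ X ∈ LL T PU, cN g X ∈ LL T PU := by
  intro X hX
  induction hX using Submodule.span_induction with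
  | mem X hX =>
    obtain ⟨i, a, ⟨ha, c, hc⟩, rfl⟩ := hX
    obtain ⟨s, hs⟩ := hg
    have key : ∀ a, ∃ a', cN g (psi (T i) a) = psi (T (s i)) a' := fun a => by
      obtain ⟨a', e⟩ := hs i a
      exact ⟨a', by rw [← e, psi_mapT]⟩
    obtain ⟨a', e⟩ := key a
    refine Submodule.subset_span ⟨s i, a', ⟨?_, c, ?_⟩, e⟩
    · rcases ha with ha | ⟨b, b', h1, rfl⟩
      · exact Or.inl ha
      obtain ⟨d, e1⟩ := key b
      obtain ⟨d', e2⟩ := key b'
      refine Or.inr ⟨d, d', adj_of_psi h (s i) ?_, psi_injective (T (s i)) ?_⟩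
      · rw [← e1, ← e2]
        exact adj_cN hI (adj_psi h i h1)
      · rw [← e, map_add, Wr.cN_add, e1, e2, map_add]
    · apply psi_injective (T (s i))
      rw [map_mul, ← e, ← Wr.cN_mul, ← map_mul, hc, map_smul, map_smul, map_one, map_one, Wr.cN_smul,
        Wr.cN_id]
  | zero => rw [Wr.cN_zero]; exact Submodule.zero_mem _
  | add X Y _ _ h1 h2 => rw [Wr.cN_add]; exact Submodule.add_mem _ h1 h2
  | smul c X _ h1 => rw [Wr.cN_smul]; exact Submodule.smul_mem _ c h1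

theorem symQ (x y : V) : (PQ.ofQuad Q).B y x = (PQ.ofQuad Q).B x y := by
  change QuadraticMap.polar Q y x = QuadraticMap.polar Q x y
  exact QuadraticMap.polar_comm _ _ _

theorem Q_add (x y : V) : Q (x + y) = Q x + Q y + (PQ.ofQuad Q).B x y := by
  change _ = _ + QuadraticMap.polar Q x y
  rw [QuadraticMap.polar]; ring

theorem alt_of {Y Y' Z : Module.End F V} (hY : Adj (PQ.ofQuad Q).B Y Y')
    (hZ : Adj (PQ.ofQuad Q).B Z Z) (hc : Commute Y Z) (v : V) :
    (PQ.ofQuad Q).B (((Y + Y') * Z) v) v = 0 := by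
  have h1 : (PQ.ofQuad Q).B (Y' (Z v)) v = (PQ.ofQuad Q).B (Y (Z v)) v := by
    rw [symQ, ← hY, ← hZ, ← Module.End.mul_apply, ← hc.eq, Module.End.mul_apply]
  simp only [Module.End.mul_apply, LinearMap.add_apply, map_add, h1, CharTwo.add_self_eq_zero]

theorem Q_psi (h : WF T PR PU (PQ.ofQuad Q) π) (hA : Alt PU) (i : ι) {a : Module.End F U}
    (ha : Adj PU.B a a) {c : F} (hc : a * a = c • 1) (v : V) : Q (psi (T i) a v) = c * Q v := by
  have sg : ∀ r u, Q ((T i).τ r u) = 0 := fun r u => (h.tf i).singW r (hA.all _)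
  refine (T i).ind (p := fun v => Q (psi (T i) a v) = c * Q v) v (by simp) (fun r u => ?_)
    fun x y h1 h2 => ?_
  · simp only [psi_τ, sg, mul_zero]
  · simp only [map_add, Q_add, h1, h2]
    rw [adj_psi h i ha, ← Module.End.mul_apply, ← map_mul, hc, map_smul, map_one]
    simp only [LinearMap.smul_apply, Module.End.one_apply, map_smul, smul_eq_mul]
    ring

theorem Dat.adjEG {B : U →ₛₗ[RingHom.id F] U →ₗ[F] F} {E G : Module.End F U} (D : Dat B E G) :
    Adj B (E * G) (G * E) := fun x y => by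
  simp only [Module.End.mul_apply, D.aE _ _, D.aG _ _]

/-- a self-adjoint map commuting with one factor is alternating. -/
theorem alt_of_comm (h : WF T PR PU (PQ.ofQuad Q) π) {E G : Module.End F U} (D : Dat PU.B E G)
    (i : ι) {Z : Module.End F V} (hZ : Adj (PQ.ofQuad Q).B Z Z)
    (hc : ∀ a, Commute (psi (T i) a) Z) (v : V) : (PQ.ofQuad Q).B (Z v) v = 0 := by
  have := alt_of (adj_psi h i D.adjEG) hZ (hc _) v
  rwa [← map_add, D.EG, map_one, one_mul] at this

/-- an involution of `LL` normalises it. -/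
theorem exists_invol (h : WF T PR PU (PQ.ofQuad Q) π) {E G : Module.End F U} (D : Dat PU.B E G)
    {X : Module.End F V} (hX : X ∈ LL T PU) (h2 : X * X = 1) :
    ∃ g : V ≃ₗ[F] V, (g : Module.End F V) = X ∧ g⁻¹ = g ∧ g ∈ NN T PU ∧
      ∀ Y, cN g Y = X * Y * X := by
  let g : V ≃ₗ[F] V := LinearEquiv.ofInvolutive X fun x => by
    rw [← Module.End.mul_apply, h2]; rfl
  have e1 : (g : Module.End F V) = X := rfl
  have e2 : g⁻¹ = g := rfl
  have e3 : ∀ Y, cN g Y = X * Y * X := fun Y => by rw [Wr.cN_eq, e2, e1]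
  have e4 : ∀ Y ∈ LL T PU, cN g Y ∈ LL T PU := fun Y hY => by
    obtain ⟨c, hc⟩ := cl_LL h D hX hY
    have : X * Y * X = c • X + Y := by
      have h3 : X * Y = c • 1 + Y * X := by rw [← hc, add_assoc, two_end, add_zero]
      rw [h3, add_mul, smul_mul_assoc, one_mul, mul_assoc, h2, mul_one]
    rw [e3, this]
    exact Submodule.add_mem _ (Submodule.smul_mem _ _ hX) hY
  exact ⟨g, e1, e2, mem_NN e4 (e2.symm ▸ e4), e3⟩

theorem exists_big [Finite F] (h : WF T PR PU (PQ.ofQuad Q) π) (hA : Alt PU) {E G : Module.End F U}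
    (D : Dat PU.B E G) (hn : 5 ≤ finrank F V) {i j : ι} (hij : i ≠ j)
    (h3 : finrank F U = 2 → ∃ l, l ≠ i ∧ l ≠ j) :
    ∃ u ∈ EG (PQ.ofQuad Q), u ∈ NN T PU ∧ u ∉ WG T := by
  have := (T i).finite
  have hV : Nontrivial V := Module.nontrivial_of_finrank_pos (R := F) (by omega)
  have gE : Good PU.B E := ⟨D.tE, 0, by rw [D.EE, zero_smul]⟩
  have gG : Good PU.B G := ⟨D.tG, 0, by rw [D.GG, zero_smul]⟩
  have g1 : Good PU.B 1 := ⟨Or.inr ⟨_, _, D.adjEG, D.EG.symm⟩, 1, by simp⟩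
  have mem : ∀ i a, Good PU.B a → psi (T i) a ∈ LL T PU := fun i a ha =>
    Submodule.subset_span ⟨i, a, ha, rfl⟩
  have cm := h.multi.comm
  set e₁ := psi (T i) E with he₁
  set f₁ := psi (T i) G with hf₁
  set e₂ := psi (T j) E with he₂
  set f₂ := psi (T j) G with hf₂
  have r1 : e₁ * e₁ = 0 := by rw [he₁, ← map_mul, D.EE, map_zero]
  have r2 : f₁ * f₁ = 0 := by rw [hf₁, ← map_mul, D.GG, map_zero]
  have r3 : e₁ * f₁ + f₁ * e₁ = 1 := by rw [he₁, hf₁, ← map_mul, ← map_mul, ← map_add, D.EG, map_one]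
  have r4 : e₂ * e₂ = 0 := by rw [he₂, ← map_mul, D.EE, map_zero]
  have r5 : e₂ * f₂ + f₂ * e₂ = 1 := by rw [he₂, hf₂, ← map_mul, ← map_mul, ← map_add, D.EG, map_one]
  have c1 : e₁ * e₂ = e₂ * e₁ := (cm i j hij _ _).eq
  have c2 : f₁ * e₂ = e₂ * f₁ := (cm i j hij _ _).eq
  have c3 : e₁ * f₂ = f₂ * e₁ := (cm i j hij _ _).eq
  have c4 : f₁ * f₂ = f₂ * f₁ := (cm i j hij _ _).eq
  have hX : e₁ + f₁ + e₂ ∈ LL T PU :=
    Submodule.add_mem _ (Submodule.add_mem _ (mem _ _ gE) (mem _ _ gG)) (mem _ _ gE)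
  have hX' : 1 + e₁ ∈ LL T PU :=
    Submodule.add_mem _ (map_one (psi (T i)) ▸ mem i _ g1) (mem _ _ gE)
  have XX : (e₁ + f₁ + e₂) * (e₁ + f₁ + e₂) = 1 := by
    have : (e₁ + f₁ + e₂) * (e₁ + f₁ + e₂) = e₁ * e₁ + f₁ * f₁ + e₂ * e₂ + (e₁ * f₁ + f₁ * e₁) +
      (e₁ * e₂ + e₂ * e₁) + (f₁ * e₂ + e₂ * f₁) := by noncomm_ring
    rw [this, r1, r2, r3, r4, c1, c2]; simp [two_end]
  have XX' : (1 + e₁) * (1 + e₁) = 1 := by
    have : (1 + e₁) * (1 + e₁) = 1 + (e₁ + e₁) + e₁ * e₁ := by noncomm_ring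
    rw [this, r1]; simp [two_end]
  obtain ⟨g, g1', g2, g3, g4⟩ := exists_invol h D hX XX
  obtain ⟨g', g1'', g2', g3', g4'⟩ := exists_invol h D hX' XX'
  have aw : Adj PU.B (E + G) (E + G) := fun x y => by simp [D.aE x y, D.aG x y]
  have ww : (E + G) * (E + G) = (1 : F) • 1 := by
    have : (E + G) * (E + G) = E * E + G * G + (E * G + G * E) := by noncomm_ring
    rw [this, D.EE, D.GG, D.EG]; simp
  have hgI : g ∈ (PQ.ofQuad Q).Isom := by
    rw [PQ.mem_isom_ofQuad]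
    intro v
    have e0 : g v = psi (T i) (E + G) v + e₂ v := by
      rw [map_add]; exact LinearMap.congr_fun g1' v
    have e1 : (PQ.ofQuad Q).B (psi (T i) (E + G) v) (e₂ v) = 0 := by
      rw [symQ, ← adj_psi h i aw, ← Module.End.mul_apply]
      rcases D.tE.add D.tG with h2 | ⟨b, b', h1, e⟩
      · obtain ⟨l, hl1, hl2⟩ := h3 h2
        refine alt_of_comm h D l (fun x y => ?_) (fun a => (cm l i hl1 _ _).mul_right
          (cm l j hl2 _ _)) v
        rw [Module.End.mul_apply, adj_psi h i aw, adj_psi h j D.aE, ← Module.End.mul_apply,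
          ← (cm i j hij _ _).eq]
      · rw [e, map_add]
        exact alt_of (adj_psi h i h1) (adj_psi h j D.aE) (cm i j hij _ _) v
    rw [e0, Q_add, e1, Q_psi h hA i aw ww, Q_psi h hA j D.aE (c := 0) (by rw [D.EE, zero_smul])]
    ring
  have hgI' : g' ∈ (PQ.ofQuad Q).Isom := by
    rw [PQ.mem_isom_ofQuad]
    intro v
    have e0 : g' v = v + e₁ v := LinearMap.congr_fun g1'' v
    rw [e0, Q_add, symQ, alt_of_comm h D j (adj_psi h i D.aE) (fun a => cm j i hij.symm _ _),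
      Q_psi h hA i D.aE (c := 0) (by rw [D.EE, zero_smul])]
    ring
  refine ⟨g * g' * g⁻¹ * g'⁻¹, (isoK_quad Q).commutator_mem_EG (h.tf i).nd hn hgI hgI',
    Subgroup.mul_mem _ (Subgroup.mul_mem _ (Subgroup.mul_mem _ g3 g3') (Subgroup.inv_mem _ g3))
      (Subgroup.inv_mem _ g3'), ?_⟩
  rintro ⟨s, hs⟩
  obtain ⟨a, ha⟩ := hs j G
  rw [psi_mapT, g2, g2', ← Wr.cN_cN, ← Wr.cN_cN, ← Wr.cN_cN, ← hf₂] at ha
  -- the four conjugations
  have t1 : ∀ X Y : Module.End F V, X * X = 1 → ∀ c : F, X * Y + Y * X = c • 1 →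
      X * Y * X = c • X + Y := fun X Y h2 c hc => by
    have h3 : X * Y = c • 1 + Y * X := by rw [← hc, add_assoc, two_end, add_zero]
    rw [h3, add_mul, smul_mul_assoc, one_mul, mul_assoc, h2, mul_one]
  have a1 : cN g' f₂ = f₂ := by
    rw [g4', t1 _ _ XX' 0 (by rw [add_mul, mul_add, c3, one_mul, mul_one, two_end, zero_smul])]
    simp
  have a2 : cN g f₂ = e₁ + f₁ + e₂ + f₂ := by
    rw [g4, t1 _ _ XX 1 ?_, one_smul]
    have : (e₁ + f₁ + e₂) * f₂ + f₂ * (e₁ + f₁ + e₂) = (e₁ * f₂ + f₂ * e₁) + (f₁ * f₂ + f₂ * f₁) +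
      (e₂ * f₂ + f₂ * e₂) := by noncomm_ring
    rw [this, c3, c4, r5]; simp [two_end]
  have β : (1 + e₁) * (e₁ + f₁ + e₂) + (e₁ + f₁ + e₂) * (1 + e₁) = (1 : F) • 1 := by
    have : (1 + e₁) * (e₁ + f₁ + e₂) + (e₁ + f₁ + e₂) * (1 + e₁) =
      ((e₁ + f₁ + e₂) + (e₁ + f₁ + e₂)) + (e₁ * e₁ + e₁ * e₁) + (e₁ * f₁ + f₁ * e₁) +
      (e₁ * e₂ + e₂ * e₁) := by noncomm_ring
    rw [this, r3, c1]; simp [two_end]
  have a3 : cN g' (e₁ + f₁ + e₂) = (1 + e₁) + (e₁ + f₁ + e₂) := by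
    rw [g4', t1 _ _ XX' 1 β, one_smul]
  have a4 : cN g (e₁ + f₁ + e₂) = e₁ + f₁ + e₂ := by rw [g4, XX, one_mul]
  have a5 : cN g (1 + e₁) = (e₁ + f₁ + e₂) + (1 + e₁) := by
    rw [g4, t1 _ _ XX 1 (by rw [add_comm]; exact β), one_smul]
  rw [a1, a2, Wr.cN_add, a1, a3, Wr.cN_add, Wr.cN_add, a2, a4, a5] at ha
  have ha' : psi (T (s j)) a = 1 + f₁ + e₂ + f₂ := by
    rw [← ha]
    have : e₁ + f₁ + e₂ + (1 + e₁) + (e₁ + f₁ + e₂) + (e₁ + f₁ + e₂ + f₂) =
      (e₁ + e₁) + (e₁ + e₁) + (f₁ + f₁) + (e₂ + e₂) + (1 + f₁ + e₂ + f₂) := by abel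
    rw [this]; simp [two_end]
  have hne : (1 : Module.End F V) ≠ 0 := one_ne_zero
  by_cases hsj : s j = i
  · have := (cm (s j) j (hsj ▸ hij) a E).eq
    rw [ha', ← he₂] at this
    apply hne
    have h4 : (1 + f₁ + e₂ + f₂) * e₂ + e₂ * (1 + f₁ + e₂ + f₂) = (e₂ + e₂) + (e₂ * e₂ + e₂ * e₂) +
      (f₁ * e₂ + e₂ * f₁) + (e₂ * f₂ + f₂ * e₂) := by noncomm_ring
    rw [this, two_end, r5, c2] at h4
    simpa [two_end] using h4.symm
  · have := (cm (s j) i hsj a E).eq
    rw [ha', ← he₁] at this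
    apply hne
    have h4 : (1 + f₁ + e₂ + f₂) * e₁ + e₁ * (1 + f₁ + e₂ + f₂) = (e₁ + e₁) + (e₁ * e₂ + e₂ * e₁) +
      (e₁ * f₂ + f₂ * e₁) + (e₁ * f₁ + f₁ * e₁) := by noncomm_ring
    rw [this, two_end, r3, c1, c3] at h4
    simpa [two_end] using h4.symm

theorem exists_out (h : WF T PR PU (PQ.ofQuad Q) π) (hA : Alt PU) (hB : Alt PR)
    {E G : Module.End F U} (D : Dat PU.B E G) (hn : 5 ≤ finrank F V) (hR : 3 ≤ finrank F R)
    {i j : ι} (hij : i ≠ j) : ∃ w ∈ EG (PQ.ofQuad Q), w ∉ NN T PU := by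
  have := (T i).finite
  have gE : Good PU.B E := ⟨D.tE, 0, by rw [D.EE, zero_smul]⟩
  have gG : Good PU.B G := ⟨D.tG, 0, by rw [D.GG, zero_smul]⟩
  have mem : ∀ i a, Good PU.B a → psi (T i) a ∈ LL T PU := fun i a ha =>
    Submodule.subset_span ⟨i, a, ha, rfl⟩
  have hU : Nontrivial U := by
    by_contra hc
    rw [not_nontrivial_iff_subsingleton] at hc
    rw [(T i).finrank_eq, Module.finrank_zero_of_subsingleton (M := U)] at hn
    omega
  obtain ⟨u, hu⟩ : ∃ u, E u ≠ 0 := by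
    by_contra hc
    push Not at hc
    have h0 : E = 0 := LinearMap.ext hc
    have := D.EG
    rw [h0] at this
    simp at this
  obtain ⟨r, hr⟩ := exists_ne (0 : R)
  obtain ⟨r', h1, h2⟩ := hB.exists_perp_notMem hR r r
  set e₁ := psi (T i) E with he₁
  set f₁ := psi (T i) G with hf₁
  have r1 : e₁ * e₁ = 0 := by rw [he₁, ← map_mul, D.EE, map_zero]
  have r3 : e₁ * f₁ + f₁ * e₁ = 1 := by rw [he₁, hf₁, ← map_mul, ← map_mul, ← map_add, D.EG, map_one]
  set p := (T i).τ r (E u) with hp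
  set d := (T i).τ r' u with hd
  set p' := (T i).τ r' (E u) with hp'
  have EE : E (E u) = 0 := by rw [← Module.End.mul_apply, D.EE]; rfl
  have q1 : e₁ p = 0 := by rw [hp, he₁, psi_τ, EE, map_zero]
  have q2 : e₁ d = p' := by rw [hd, he₁, psi_τ]
  have q3 : e₁ p' = 0 := by rw [hp', he₁, psi_τ, EE, map_zero]
  have sg : ∀ r u, (PQ.ofQuad Q).q ((T i).τ r u) ∈ (PQ.ofQuad Q).Λ :=
    fun r u => (h.tf i).singW r (hA.all _)
  have b1 : (PQ.ofQuad Q).B p d = 0 := by rw [hp, hd, (h.tf i).B_τ, h1, zero_mul]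
  obtain ⟨w, hw, e⟩ := has_eu_EG (sg r (E u)) (w := d) (c := 0) b1
    (by simpa using (PQ.ofQuad Q).Λ.neg_mem (sg r' u))
  refine ⟨w, hw, fun hN => ?_⟩
  set B := (PQ.ofQuad Q).B with hBdef
  have sy : ∀ x y, B y x = B x y := symQ
  have e' : ∀ x, w x = x + B d x • p + B p x • d := fun x => by
    rw [e, eu_apply]
    have : (PQ.ofQuad Q).ε = 1 := rfl
    rw [this, sub_eq_add_neg (x + _), ← neg_smul, CharTwo.neg_eq]
    simp [hBdef, hp]
  have alt : ∀ v, B v v = 0 := fun v =>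
    alt_of_comm h D j (Z := 1) (fun _ _ => rfl) (fun a => Commute.one_right _) v
  have ae : ∀ v, B (e₁ v) v = 0 :=
    alt_of_comm h D j (adj_psi h i D.aE) (fun a => h.multi.comm j i hij.symm _ _)
  have ad : Adj B e₁ e₁ := adj_psi h i D.aE
  have two : ∀ v : V, v + v = 0 := fun v => by rw [← two_smul F v, CharTwo.two_eq_zero, zero_smul]
  have b2 : B d p = 0 := by rw [sy, b1]
  have ww : ∀ x, w (w x) = x := fun x => by
    rw [e' (w x), e' x]
    simp only [map_add, map_smul, alt, b1, b2, smul_eq_mul, mul_zero, add_zero]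
    have : x + B d x • p + B p x • d + B d x • p + B p x • d =
      x + (B d x • p + B d x • p) + (B p x • d + B p x • d) := by abel
    rw [this, two, two]; simp
  have winv : ∀ x, w⁻¹ x = w x := fun x => by
    conv_lhs => rw [← ww x]
    exact le_inv_apply_apply _ _
  have b3 : B d p' = 0 := by rw [← q2, sy, ae]
  have b4 : B p p' = 0 := by rw [← q2, ← ad, q1]; simp
  have Z : ∀ x, (cN w e₁ + e₁) x = B p x • p' + B p' x • p := fun x => by
    have k1 : B d (e₁ x) = B p' x := by rw [← ad, q2]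
    have k2 : B p (e₁ x) = 0 := by rw [← ad, q1]; simp
    rw [LinearMap.add_apply, cN_apply, winv, e' x, map_add e₁, map_add e₁, map_smul e₁,
      map_smul e₁, q1, q2, e']
    simp only [map_add, map_smul, k1, k2, b3, b4, smul_eq_mul, mul_zero, add_zero, smul_zero,
      zero_smul]
    have : e₁ x + B p x • p' + B p' x • p + e₁ x = (e₁ x + e₁ x) + (B p x • p' + B p' x • p) := by
      abel
    rw [this, two, zero_add]
  obtain ⟨c, hc⟩ := cl_LL h D (Submodule.add_mem _ ((hN _).1 (mem i E gE)) (mem i E gE))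
    (mem i G gG)
  rw [← he₁, ← hf₁] at hc
  have eZ : ∀ x, e₁ ((cN w e₁ + e₁) x) = 0 := fun x => by
    rw [Z, map_add, map_smul, map_smul, q1, q3]; simp
  have key : ∀ x, (cN w e₁ + e₁) x = c • e₁ x := fun x => by
    have h4 := congrArg e₁ (LinearMap.congr_fun hc x)
    have h5 := LinearMap.congr_fun r3 ((cN w e₁ + e₁) x)
    simp only [LinearMap.add_apply (_ * _), Module.End.mul_apply, map_add e₁, eZ, zero_add,
      LinearMap.smul_apply, Module.End.one_apply, map_smul, map_zero, add_zero] at h4 h5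
    rw [← h4, h5]
  have hp0 : p ≠ 0 := fun h0 => by
    rcases (T i).τ_eq_zero.1 h0 with h0 | h0
    exacts [hr h0, hu h0]
  by_cases hc0 : c = 0
  · obtain ⟨x, hx⟩ := H11.Ten.exists_B_eq (h.tf i).nd hp0 1
    have h4 := key x
    rw [Z, hc0, zero_smul, ← hBdef] at *
    rw [hx, one_smul, hp, hp', ← LinearMap.smul_apply, ← map_smul, ← LinearMap.add_apply,
      ← map_add, (T i).τ_eq_zero] at h4
    apply h2
    rw [Submodule.mem_span_singleton]
    refine ⟨-B ((T i).τ r' (E u)) x, ?_⟩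
    rw [neg_smul, neg_eq_iff_add_eq_zero, add_comm]
    exact h4.resolve_right hu
  · have hs : Submodule.span F (Set.range ![p, p', f₁ p, f₁ p']) = ⊤ := by
      rw [eq_top_iff]
      intro x _
      have k : ∀ y, e₁ y = (c⁻¹ * B p y) • p' + (c⁻¹ * B p' y) • p := fun y => by
        rw [mul_smul, mul_smul, ← smul_add, ← Z, key, smul_smul, inv_mul_cancel₀ hc0, one_smul]
      have h5 := LinearMap.congr_fun r3 x
      simp only [LinearMap.add_apply, Module.End.mul_apply, Module.End.one_apply] at h5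
      rw [← h5, k, k, map_add, map_smul, map_smul]
      refine Submodule.add_mem _ (Submodule.add_mem _ ?_ ?_) (Submodule.add_mem _ ?_ ?_) <;>
        refine Submodule.smul_mem _ _ (Submodule.subset_span ?_)
      exacts [⟨1, rfl⟩, ⟨0, rfl⟩, ⟨3, rfl⟩, ⟨2, rfl⟩]
    have := finrank_le_of_span_eq_top hs
    rw [Fintype.card_fin] at this
    omega

theorem main [Finite F] (h : WF T PR PU (PQ.ofQuad Q) π) (hA : Alt PU) (hB : Alt PR)
    (hd : finrank F U = 2 ∨ finrank F U = 4) (hn : 5 ≤ finrank F V) (hR : 3 ≤ finrank F R)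
    {i j : ι} (hij : i ≠ j) (h3 : finrank F U = 2 → ∃ l, l ≠ i ∧ l ≠ j) :
    ∃ K, WG T ⊓ EG (PQ.ofQuad Q) < K ∧ K < EG (PQ.ofQuad Q) := by
  obtain ⟨E, G, D⟩ := exists_dat hA hd
  obtain ⟨u, u1, u2, u3⟩ := exists_big h hA D hn hij h3
  obtain ⟨w, w1, w2⟩ := exists_out h hA hB D hn hR hij
  refine ⟨NN T PU ⊓ EG (PQ.ofQuad Q), lt_of_le_not_ge ?_ fun hc => u3 (hc ⟨u2, u1⟩).1,
    lt_of_le_not_ge inf_le_right fun hc => w2 (hc w1).1⟩
  rintro g ⟨h1, h2⟩
  exact ⟨mem_NN (WG_norm h h1 (EG_le_isom h2))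
    (WG_norm h (Subgroup.inv_mem _ h1) (Subgroup.inv_mem _ (EG_le_isom h2))), h2⟩

end Big

end H38.Spin
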